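-- Team project OELP (S5988), package [BLKE]: the block package in any characteristic (helper59).
import Mathlib
import Cfsg.Agent.Lib.Helper59.OElp.SingCntE
import Cfsg.Agent.Lib.Helper59.OHyp.Blk
import Cfsg.Agent.Lib.Helper27.OHyp.SingCnt
import Cfsg.Agent.Lib.Helper36.AltEven

set_option autoImplicit false
set_option linter.unusedSectionVars false

namespace Cfsg.Agent.Lib.Helper59.OElp

open Cfsg.Agent.Lib.Helper23.OHyp Cfsg.Agent.Lib.Helper59.OHyp Cfsg.Agent.Lib.Helper44.OElp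

universe u

section

variable {F : Type u} [Field F] [Fintype F] {ι : Type} [Fintype ι] [DecidableEq ι]
  {Q : (ι → F) → F} {r : ℕ} {x : Matrix ι ι F}

/-- [FROB] for `StdE` (helper25's proof; it never uses `2 ≠ 0`). -/
theorem frobE (hS : StdE Q r x) (hev : Even (ordI (Fintype.card F) r))
    (g : Polynomial F) (u v : ι → F) :
    QuadraticMap.polar Q ((Polynomial.aeval x g).mulVec u) v =
      QuadraticMap.polar Q u
        (((Polynomial.aeval x g) ^ (Fintype.card F ^ (ordI (Fintype.card F) r / 2))).mulVec v) := by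
  have : Fact r.Prime := ⟨hS.prime⟩
  obtain ⟨j, hj⟩ := hev
  have hq0 : ((Fintype.card F : ℕ) : ZMod r) ≠ 0 := by
    intro h
    exact hS.ndvd ((ZMod.natCast_eq_zero_iff _ _).mp h)
  have hfin : IsOfFinOrder ((Fintype.card F : ℕ) : ZMod r) := by
    rw [isOfFinOrder_iff_pow_eq_one]
    exact ⟨r - 1, Nat.sub_pos_of_lt hS.prime.one_lt, ZMod.pow_card_sub_one_eq_one hq0⟩
  have hipos : 0 < ordI (Fintype.card F) r := orderOf_pos_iff.mpr hfin
  have hj1 : 1 ≤ j := by omega
  have hsq : (((Fintype.card F : ℕ) : ZMod r) ^ j) ^ 2 = 1 := by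
    rw [← pow_mul]
    have : j * 2 = ordI (Fintype.card F) r := by omega
    rw [this]
    exact pow_orderOf_eq_one _
  have hne1 : ((Fintype.card F : ℕ) : ZMod r) ^ j ≠ 1 := by
    intro h
    have h1 : ordI (Fintype.card F) r ∣ j := orderOf_dvd_of_pow_eq_one h
    have h2 := Nat.le_of_dvd (by omega) h1
    omega
  have hneg : ((Fintype.card F : ℕ) : ZMod r) ^ j = -1 := by
    rcases sq_eq_one_iff.mp hsq with h | h
    · exact absurd h hne1
    · exact h
  have hdvd : r ∣ Fintype.card F ^ j + 1 := by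
    rw [← ZMod.natCast_eq_zero_iff]
    push_cast
    rw [hneg]
    ring
  have hx1 : x * x ^ (Fintype.card F ^ j) = 1 := by
    obtain ⟨k, hk⟩ := hdvd
    rw [← pow_succ', hk, pow_mul, hS.pow, one_pow]
  have hiso : ∀ a b : ι → F,
      QuadraticMap.polar Q (x.mulVec a) (x.mulVec b) = QuadraticMap.polar Q a b := by
    intro a b
    unfold QuadraticMap.polar
    rw [← Matrix.mulVec_add, hS.isom, hS.isom, hS.isom]
  have step1 : ∀ a b : ι → F, QuadraticMap.polar Q (x.mulVec a) b =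
      QuadraticMap.polar Q a ((x ^ (Fintype.card F ^ j)).mulVec b) := by
    intro a b
    have hb : b = x.mulVec ((x ^ (Fintype.card F ^ j)).mulVec b) := by
      rw [Matrix.mulVec_mulVec, hx1, Matrix.one_mulVec]
    calc QuadraticMap.polar Q (x.mulVec a) b
        = QuadraticMap.polar Q (x.mulVec a) (x.mulVec ((x ^ (Fintype.card F ^ j)).mulVec b)) := by
          rw [← hb]
      _ = QuadraticMap.polar Q a ((x ^ (Fintype.card F ^ j)).mulVec b) := hiso _ _
  have step2 : ∀ (k : ℕ) (a b : ι → F), QuadraticMap.polar Q ((x ^ k).mulVec a) b =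
      QuadraticMap.polar Q a (((x ^ (Fintype.card F ^ j)) ^ k).mulVec b) := by
    intro k
    induction k with
    | zero => intro a b; simp
    | succ k ih =>
      intro a b
      rw [pow_succ' x k, ← Matrix.mulVec_mulVec, step1, ih, Matrix.mulVec_mulVec, ← pow_succ]
  have hbil := hS.nondeg.polar_bilinear
  have step3 : ∀ (g : Polynomial F) (a b : ι → F),
      QuadraticMap.polar Q ((Polynomial.aeval x g).mulVec a) b =
        QuadraticMap.polar Q a ((Polynomial.aeval (x ^ (Fintype.card F ^ j)) g).mulVec b) := by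
    intro g
    induction g using Polynomial.induction_on' with
    | add p q hp hq =>
      intro a b
      rw [map_add, map_add, Matrix.add_mulVec, Matrix.add_mulVec, hbil.add_left, hbil.add_right,
        hp, hq]
    | monomial n c =>
      intro a b
      rw [Polynomial.aeval_monomial, Polynomial.aeval_monomial, ← Algebra.smul_def,
        ← Algebra.smul_def, Matrix.smul_mulVec, Matrix.smul_mulVec, hbil.smul_left,
        hbil.smul_right, step2]
  have hexp : Polynomial.aeval (x ^ (Fintype.card F ^ j)) g =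
      (Polynomial.aeval x g) ^ (Fintype.card F ^ j) := by
    rw [← Polynomial.expand_aeval, Cfsg.Agent.Lib.Helper25.OHyp.expand_card_pow, map_pow]
  have hhalf : ordI (Fintype.card F) r / 2 = j := by omega
  rw [hhalf, ← hexp]
  exact step3 g u v

/-- [EVEN] for `StdE`, any characteristic. -/
theorem evenCaseE (hS : StdE Q r x) (W : Submodule F (ι → F)) (hW : Helper23.OHyp.Inv x W)
    (hNd : Nd Q W) (hW0 : W ≠ ⊥) (hNF : NoFix x W) (hev : Even (ordI (Fintype.card F) r)) :
    ∃ D : Submodule F (ι → F), D ≤ W ∧ MinInv x D ∧ Nd Q D ∧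
      Module.finrank F D = ordI (Fintype.card F) r := by
  have hI := Cfsg.Agent.Lib.Helper77.OHyp.pkgIrrDim.{u}
  have hM := Cfsg.Agent.Lib.Helper46.OHyp.pkgMaschke.{u}
  have hC := Cfsg.Agent.Lib.Helper76.OHyp.pkgCyc.{u}
  have hA := Cfsg.Agent.Lib.Helper25.OHyp.pkgAnn.{u}
  have hb := hS.nondeg.polar_bilinear
  have hr0 : 0 < r := hS.prime.pos
  -- step 1
  obtain ⟨U, hUW, hUmin⟩ := exists_minInv x _ W le_rfl hW hW0
  have hUdim := hI F ι r x hS.prime hS.ndvd hS.pow U hUmin (hNF.mono hUW)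
  -- step 2
  obtain ⟨g, hg0, hgdeg, hgU⟩ := hA F ι x U hUmin.1
  obtain ⟨G, hG⟩ : ∃ G : Matrix ι ι F, G = Polynomial.aeval x g := ⟨_, rfl⟩
  rw [← hG] at hgU
  have hc : Commute x G := by
    rw [hG]
    simpa using (Polynomial.commute_X g).map (Polynomial.aeval x)
  -- step 3
  have hmemK : ∀ w : ι → F, w ∈ LinearMap.ker (Matrix.toLin' G) ↔ G.mulVec w = 0 := by
    intro w
    rw [LinearMap.mem_ker, Matrix.toLin'_apply]
  obtain ⟨Wg, hWg⟩ : ∃ Wg : Submodule F (ι → F), Wg = W ⊓ LinearMap.ker (Matrix.toLin' G) :=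
    ⟨_, rfl⟩
  have hmemWg : ∀ w : ι → F, w ∈ Wg ↔ w ∈ W ∧ G.mulVec w = 0 := by
    intro w
    rw [hWg, Submodule.mem_inf, hmemK]
  have hWgW : Wg ≤ W := by rw [hWg]; exact inf_le_left
  have hWgInv : Helper23.OHyp.Inv x Wg := by
    rw [inv_iff]
    intro w hw
    rw [hmemWg] at hw ⊢
    refine ⟨(inv_iff x W).1 hW w hw.1, ?_⟩
    rw [Matrix.mulVec_mulVec, ← hc.eq, ← Matrix.mulVec_mulVec, hw.2, Matrix.mulVec_zero]
  have hUWg : U ≤ Wg := fun v hv => (hmemWg v).2 ⟨hUW hv, hgU v hv⟩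
  -- step 4
  obtain ⟨C, hCW, hCinv, hdisj, hsup⟩ := hM F ι r x hS.ne hS.pow W Wg hWgW hW hWgInv
  -- step 5
  have hGC : ∀ c ∈ C, G.mulVec c ∈ C := by
    rw [hG]
    exact inv_aeval hCinv g
  have hsurj : ∀ c ∈ C, ∃ c' ∈ C, G.mulVec c' = c := by
    have hmaps : ∀ c ∈ C, Matrix.toLin' G c ∈ C := by
      intro c hc'
      rw [Matrix.toLin'_apply]
      exact hGC c hc'
    obtain ⟨φ, hφ⟩ : ∃ φ : C →ₗ[F] C, φ = (Matrix.toLin' G).restrict hmaps := ⟨_, rfl⟩
    have hφv : ∀ c : C, ((φ c : C) : ι → F) = G.mulVec (c : ι → F) := by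
      intro c
      rw [hφ, LinearMap.coe_restrict_apply, Matrix.toLin'_apply]
    have hinj : Function.Injective φ := by
      rw [← LinearMap.ker_eq_bot, LinearMap.ker_eq_bot']
      intro c hc'
      have h1 : G.mulVec (c : ι → F) = 0 := by
        rw [← hφv, hc']
        rfl
      have h2 : (c : ι → F) ∈ Wg ⊓ C := ⟨(hmemWg _).2 ⟨hCW c.2, h1⟩, c.2⟩
      rw [hdisj] at h2
      exact Subtype.ext ((Submodule.mem_bot F).1 h2)
    have hs : Function.Surjective φ := LinearMap.surjective_of_injective hinj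
    intro c hc'
    obtain ⟨c', hc''⟩ := hs ⟨c, hc'⟩
    refine ⟨c', c'.2, ?_⟩
    rw [← hφv, hc'']
  -- step 6
  have hperp : ∀ w ∈ Wg, ∀ c ∈ C, QuadraticMap.polar Q c w = 0 := by
    intro w hw c hc'
    obtain ⟨c', _, rfl⟩ := hsurj c hc'
    have h1 := frobE hS hev g c' w
    rw [← hG] at h1
    rw [h1]
    have hN : 0 < Fintype.card F ^ (ordI (Fintype.card F) r / 2) := pow_pos Fintype.card_pos _
    obtain ⟨N, hNeq⟩ : ∃ N, Fintype.card F ^ (ordI (Fintype.card F) r / 2) = N + 1 :=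
      ⟨_, (Nat.succ_pred_eq_of_pos hN).symm⟩
    rw [hNeq, pow_succ, ← Matrix.mulVec_mulVec, ((hmemWg w).1 hw).2, Matrix.mulVec_zero]
    exact polar_zero_right hb c'
  -- step 7
  have hNdWg : ∀ w ∈ Wg, w ≠ 0 → ∃ a ∈ Wg, QuadraticMap.polar Q a w ≠ 0 := by
    intro w hw hw0
    obtain ⟨⟨v, hv, hne⟩, _⟩ := hNd w (hWgW hw) hw0
    rw [← hsup] at hv
    obtain ⟨a, ha, c, hc', rfl⟩ := Submodule.mem_sup.1 hv
    refine ⟨a, ha, ?_⟩
    rw [hb.add_left, hperp w hw c hc', add_zero] at hne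
    exact hne
  -- step 8 (any characteristic): some `w` in `Wg` is not orthogonal to `x w`
  have hxWg : ∀ w ∈ Wg, x.mulVec w ∈ Wg := (inv_iff x Wg).1 hWgInv
  have hex : ∃ w ∈ Wg, QuadraticMap.polar Q w (x.mulVec w) ≠ 0 := by
    by_contra hcon
    have hzero : ∀ w ∈ Wg, QuadraticMap.polar Q w (x.mulVec w) = 0 :=
      fun w hw => by_contra fun h => hcon ⟨w, hw, h⟩
    have hall : ∀ b ∈ Wg, x.mulVec b + (x ^ (r - 1)).mulVec b = 0 := by
      intro b hb'
      have hmem : x.mulVec b + (x ^ (r - 1)).mulVec b ∈ Wg :=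
        Wg.add_mem (hxWg b hb') (inv_pow hWgInv (r - 1) b hb')
      by_contra hne
      obtain ⟨a, ha, hane⟩ := hNdWg _ hmem hne
      apply hane
      have h1 := hzero (a + b) (Wg.add_mem ha hb')
      rw [Matrix.mulVec_add, hb.add_left, hb.add_right, hb.add_right, hzero a ha, hzero b hb',
        zero_add, add_zero] at h1
      have h2 : QuadraticMap.polar Q b (x.mulVec a) =
          QuadraticMap.polar Q a ((x ^ (r - 1)).mulVec b) := by
        rw [QuadraticMap.polar_comm]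
        have h3 : b = x.mulVec ((x ^ (r - 1)).mulVec b) := by
          rw [Matrix.mulVec_mulVec, ← pow_succ', Nat.sub_add_cancel hr0, hS.pow,
            Matrix.one_mulVec]
        nth_rewrite 1 [h3]
        exact polar_isom hS.isom _ _
      rw [hb.add_right, ← h2]
      exact h1
    obtain ⟨u, hu, hu0⟩ := (Submodule.ne_bot_iff U).1 hUmin.2.1
    have hu' := hall u (hUWg hu)
    -- `x ^ 2 u = - u`
    have hx2 : (x ^ 2).mulVec u = -u := by
      have h1 : x.mulVec (x.mulVec u + (x ^ (r - 1)).mulVec u) = x.mulVec 0 := by rw [hu']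
      rw [Matrix.mulVec_add, Matrix.mulVec_mulVec, Matrix.mulVec_mulVec, ← pow_succ',
        Nat.sub_add_cancel hr0, hS.pow, Matrix.one_mulVec, Matrix.mulVec_zero, ← pow_two] at h1
      exact eq_neg_of_add_eq_zero_left h1
    have hx4 : (x ^ 4).mulVec u = u := by
      have h4 : x ^ 4 = x ^ 2 * x ^ 2 := by rw [← pow_add]
      rw [h4, ← Matrix.mulVec_mulVec, hx2, Matrix.mulVec_neg, hx2, neg_neg]
    have hx4k : ∀ k : ℕ, ((x ^ 4) ^ k).mulVec u = u := by
      intro k
      induction k with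
      | zero => simp
      | succ k ih => rw [pow_succ, ← Matrix.mulVec_mulVec, hx4, ih]
    obtain ⟨a, ha⟩ := hS.prime.odd_of_ne_two hS.ne_two
    have hrr : r * r = 4 * (a * (a + 1)) + 1 := by rw [ha]; ring
    have hxu : x.mulVec u = u := by
      have h1 : (x ^ (r * r)).mulVec u = u := by
        rw [pow_mul, hS.pow, one_pow, Matrix.one_mulVec]
      rw [hrr, pow_succ', pow_mul, ← Matrix.mulVec_mulVec, hx4k] at h1
      exact h1
    exact hu0 (hNF u (hUW hu) hxu)
  obtain ⟨w, hw, hww⟩ := hex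
  -- step 9
  obtain ⟨hDinv, hwD, hDmin, hDdeg⟩ := hC F ι x w
  have hDWg : cycSp x w ≤ Wg := hDmin Wg hWgInv hw
  have hDW : cycSp x w ≤ W := hDWg.trans hWgW
  have hgw : (Polynomial.aeval x g).mulVec w = 0 := by
    rw [← hG]
    exact ((hmemWg w).1 hw).2
  have hDle : Module.finrank F (cycSp x w) ≤ ordI (Fintype.card F) r :=
    (hDdeg g hg0 hgw).trans (hgdeg.trans hUdim.le)
  have hw0 : w ≠ 0 := by
    rintro rfl
    exact hww (polar_zero_left hb _)
  have hD0 : cycSp x w ≠ ⊥ := by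
    intro h
    rw [h] at hwD
    exact hw0 ((Submodule.mem_bot F).1 hwD)
  -- step 10
  obtain ⟨U₂, hU₂D, hU₂min⟩ := exists_minInv x _ (cycSp x w) le_rfl hDinv hD0
  have hU₂dim := hI F ι r x hS.prime hS.ndvd hS.pow U₂ hU₂min (hNF.mono (hU₂D.trans hDW))
  have hU₂eq : U₂ = cycSp x w :=
    Submodule.eq_of_le_of_finrank_le hU₂D (by rw [hU₂dim]; exact hDle)
  rw [hU₂eq] at hU₂min hU₂dim
  -- step 11
  refine ⟨cycSp x w, hDW, hU₂min, ?_, hU₂dim⟩
  apply nd_of_inf_perp hb
  rcases hU₂min.inf_eq (inv_perpSp hb hr0 hS.pow hS.isom hDinv) with h | h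
  · exact h
  · exact absurd (h ((inv_iff x _).1 hDinv w hwD) w hwD) hww

/-- [MINUS] for `StdE`, any characteristic (helper79's proof with the char-free count). -/
theorem minusE (hstd : StdE Q r x) (D : Submodule F (ι → F)) (hmin : MinInv x D)
    (hnofix : NoFix x D) (hnd : Nd Q D) (heven : Even (ordI (Fintype.card F) r))
    (hfin : Module.finrank F D = ordI (Fintype.card F) r) : ¬ Plus Q D := by
  intro hplus
  classical
  have : Fact r.Prime := ⟨hstd.prime⟩
  have hDpos : 0 < Module.finrank F D := by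
    rcases Nat.eq_zero_or_pos (Module.finrank F D) with h0 | h0
    · exact absurd (Submodule.finrank_eq_zero.mp h0) hmin.2.1
    · exact h0
  obtain ⟨k, hk⟩ := heven
  obtain ⟨j, rfl⟩ : ∃ j, k = j + 1 := ⟨k - 1, by omega⟩
  have hi : ordI (Fintype.card F) r = 2 * (j + 1) := by omega
  have hcnt := singCntE Q hstd.nondeg D j hnd hplus (by omega)
  have hQ0 : Q 0 = 0 := by
    have := hstd.nondeg.smul 0 0
    simpa using this
  let f : Function.End {v : ι → F // v ∈ D ∧ Q v = 0} := fun v =>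
    ⟨x.mulVec v.1, hmin.1 ⟨v.1, v.2.1, by simp [Matrix.toLin'_apply]⟩, by
      rw [hstd.isom]; exact v.2.2⟩
  have hpow : ∀ (n : ℕ) (v : {v : ι → F // v ∈ D ∧ Q v = 0}),
      ((f ^ n) v).1 = (x ^ n).mulVec v.1 := by
    intro n
    induction n with
    | zero => intro v; rw [pow_zero, pow_zero, Matrix.one_mulVec]; rfl
    | succ n ih =>
      intro v
      rw [pow_succ, pow_succ]
      show ((f ^ n) (f v)).1 = _
      rw [ih]
      show (x ^ n).mulVec (x.mulVec v.1) = _
      rw [Matrix.mulVec_mulVec]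
  have hf : f ^ r ^ 1 = 1 := by
    funext v
    apply Subtype.ext
    rw [pow_one, hpow, hstd.pow, Matrix.one_mulVec]
    rfl
  have hmod := Equiv.Perm.card_fixedPoints_modEq (p := r) (n := 1) hf
  have hfix : Fintype.card (Function.fixedPoints f) = 1 := by
    rw [Fintype.card_eq_one_iff]
    refine ⟨⟨⟨0, D.zero_mem, hQ0⟩, ?_⟩, ?_⟩
    · show f _ = _
      apply Subtype.ext
      show x.mulVec 0 = 0
      simp
    · rintro ⟨b, hb⟩
      apply Subtype.ext
      apply Subtype.ext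
      exact hnofix b.1 b.2.1 (congrArg Subtype.val hb)
  rw [hfix, Fintype.card_eq_nat_card, hcnt] at hmod
  exact Cfsg.Agent.Lib.Helper79.OHyp.minus_arith (Fintype.card F) r j hstd.prime hstd.ne_two
    Fintype.card_pos hi hmod

/-- In characteristic two a nondegenerate subspace has even dimension. -/
theorem even_finrank_of_nd (hQ : Cfsg.Geo.IsNondegenerateQuadraticForm Q) (h2 : (2 : F) = 0)
    (U : Submodule F (ι → F)) (hU : Nd Q U) : Even (Module.finrank F U) := by
  have hb := hQ.polar_bilinear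
  obtain ⟨BU, hBU⟩ : ∃ BU : LinearMap.BilinForm F U, ∀ a b : U,
      BU a b = QuadraticMap.polar Q (a : ι → F) (b : ι → F) :=
    ⟨LinearMap.mk₂ F (fun a b : U => QuadraticMap.polar Q (a : ι → F) (b : ι → F))
      (fun a a' b => hb.add_left _ _ _) (fun c a b => hb.smul_left _ _ _)
      (fun a b b' => hb.add_right _ _ _) (fun c a b => hb.smul_right _ _ _), fun a b => rfl⟩
  have halt : BU.IsAlt := by
    intro a
    rw [hBU]
    unfold QuadraticMap.polar
    have h3 : (a : ι → F) + (a : ι → F) = (2 : F) • (a : ι → F) := (two_smul F _).symm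
    rw [h3, hQ.smul, h2]
    have h4 : (2 : F) * Q (a : ι → F) = 0 := by rw [h2, zero_mul]
    linear_combination (-1 : F) * h4
  obtain ⟨k, hk⟩ := Cfsg.Agent.Lib.Helper36.alt_finrank_aux F (Module.finrank F U) U BU halt rfl
  have hker : LinearMap.ker BU = ⊥ := by
    rw [LinearMap.ker_eq_bot']
    intro a ha
    by_contra hne
    obtain ⟨_, ⟨y, hy, hyne⟩⟩ := hU a a.2 (fun h => hne (Subtype.ext h))
    apply hyne
    have h1 := LinearMap.congr_fun ha ⟨y, hy⟩
    rw [hBU] at h1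
    exact h1
  rw [hker, finrank_bot, zero_add] at hk
  exact ⟨k, by omega⟩

/-- [ODD] for `StdE` in characteristic two. -/
theorem oddCase2 (hS : StdE Q r x) (h2 : (2 : F) = 0) (W : Submodule F (ι → F))
    (hW : Helper23.OHyp.Inv x W) (hNd : Nd Q W) (hW0 : W ≠ ⊥) (hNF : NoFix x W)
    (hodd : Odd (ordI (Fintype.card F) r)) :
    ∃ D : Submodule F (ι → F), D ≤ W ∧ Helper23.OHyp.Inv x D ∧ Nd Q D ∧
      Module.finrank F D = 2 * ordI (Fintype.card F) r ∧ Plus Q D := by
  have hI := Cfsg.Agent.Lib.Helper77.OHyp.pkgIrrDim.{u}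
  have hM := Cfsg.Agent.Lib.Helper46.OHyp.pkgMaschke.{u}
  have hb := hS.nondeg.polar_bilinear
  have hr0 : 0 < r := hS.prime.pos
  -- step 1, 2
  obtain ⟨U, hUW, hUmin⟩ := exists_minInv x _ W le_rfl hW hW0
  have hUNF : NoFix x U := hNF.mono hUW
  have hUdim := hI F ι r x hS.prime hS.ndvd hS.pow U hUmin hUNF
  have hUts : U ≤ perpSp Q hb U := by
    rcases hUmin.inf_eq (inv_perpSp hb hr0 hS.pow hS.isom hUmin.1) with h | h
    · exfalso
      have hev := even_finrank_of_nd hS.nondeg h2 U (nd_of_inf_perp hb h)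
      rw [hUdim] at hev
      exact (Nat.not_even_iff_odd.2 hodd) hev
    · exact h
  have hUQ : ∀ u ∈ U, Q u = 0 := by
    have hxU : ∀ u ∈ U, x.mulVec u ∈ U := (inv_iff x U).1 hUmin.1
    have hmaps : ∀ u ∈ U, (Matrix.toLin' x - 1) u ∈ U := by
      intro u hu
      rw [LinearMap.sub_apply, Matrix.toLin'_apply]
      exact U.sub_mem (hxU u hu) hu
    obtain ⟨φ, hφ⟩ : ∃ φ : U →ₗ[F] U, φ = (Matrix.toLin' x - 1).restrict hmaps := ⟨_, rfl⟩
    have hφv : ∀ c : U, ((φ c : U) : ι → F) = x.mulVec (c : ι → F) - (c : ι → F) := by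
      intro c
      rw [hφ, LinearMap.coe_restrict_apply, LinearMap.sub_apply, Matrix.toLin'_apply]
      rfl
    have hinj : Function.Injective φ := by
      rw [← LinearMap.ker_eq_bot, LinearMap.ker_eq_bot']
      intro c hc'
      have h1 : x.mulVec (c : ι → F) - (c : ι → F) = 0 := by
        rw [← hφv, hc']
        rfl
      exact Subtype.ext (hUNF c c.2 (sub_eq_zero.1 h1))
    have hs : Function.Surjective φ := LinearMap.surjective_of_injective hinj
    intro u hu
    obtain ⟨c, hc⟩ := hs ⟨u, hu⟩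
    have hcu : x.mulVec (c : ι → F) - (c : ι → F) = u := by rw [← hφv, hc]
    have h1 : u = x.mulVec (c : ι → F) + (-1 : F) • (c : ι → F) := by
      rw [← hcu, neg_one_smul, sub_eq_add_neg]
    have h3 : Q (x.mulVec (c : ι → F) + (-1 : F) • (c : ι → F)) =
        Q (x.mulVec (c : ι → F)) + Q ((-1 : F) • (c : ι → F)) +
          QuadraticMap.polar Q (x.mulVec (c : ι → F)) ((-1 : F) • (c : ι → F)) := by
      unfold QuadraticMap.polar
      ring
    rw [h1, h3, hS.isom, hS.nondeg.smul, hb.smul_right, hUts c.2 _ (hxU c c.2)]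
    have h4 : (2 : F) * Q (c : ι → F) = 0 := by rw [h2, zero_mul]
    linear_combination h4
  -- step 3
  have hPinv : Helper23.OHyp.Inv x (W ⊓ perpSp Q hb U) :=
    inv_inf hW (inv_perpSp hb hr0 hS.pow hS.isom hUmin.1)
  have hPne : W ⊓ perpSp Q hb U ≠ W := by
    intro h
    obtain ⟨u, hu, hu0⟩ := (Submodule.ne_bot_iff U).1 hUmin.2.1
    obtain ⟨_, ⟨v, hv, hne⟩⟩ := hNd u (hUW hu) hu0
    rw [← h] at hv
    exact hne (hv.2 u hu)
  -- step 4
  obtain ⟨C, hCW, hCinv, hdisj, hsup⟩ :=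
    hM F ι r x hS.ne hS.pow W (W ⊓ perpSp Q hb U) inf_le_left hW hPinv
  have hC0 : C ≠ ⊥ := by
    intro h
    rw [h, sup_bot_eq] at hsup
    exact hPne hsup
  -- step 5
  obtain ⟨U', hU'C, hU'min⟩ := exists_minInv x _ C le_rfl hCinv hC0
  have hU'W : U' ≤ W := hU'C.trans hCW
  have hU'dim := hI F ι r x hS.prime hS.ndvd hS.pow U' hU'min (hNF.mono hU'W)
  have hU'disj : ∀ v ∈ U', v ∈ perpSp Q hb U → v = 0 := by
    intro v hv hvp
    have : v ∈ (W ⊓ perpSp Q hb U) ⊓ C := ⟨⟨hU'W hv, hvp⟩, hU'C hv⟩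
    rw [hdisj] at this
    exact (Submodule.mem_bot F).1 this
  -- step 6
  have hUdisj : ∀ v ∈ U, v ∈ perpSp Q hb U' → v = 0 := by
    rcases hUmin.inf_eq (inv_perpSp hb hr0 hS.pow hS.isom hU'min.1) with h | h
    · intro v hv hvp
      have : v ∈ U ⊓ perpSp Q hb U' := ⟨hv, hvp⟩
      rw [h] at this
      exact (Submodule.mem_bot F).1 this
    · exfalso
      obtain ⟨u', hu', hu'0⟩ := (Submodule.ne_bot_iff U').1 hU'min.2.1
      apply hu'0
      apply hU'disj u' hu'
      intro u hu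
      rw [QuadraticMap.polar_comm]
      exact h hu u' hu'
  -- step 7
  have hinf : U ⊓ U' = ⊥ := by
    rw [eq_bot_iff]
    intro v hv
    exact (Submodule.mem_bot F).2 (hU'disj v hv.2 (hUts hv.1))
  have hfr : Module.finrank F ↥(U ⊔ U') = 2 * ordI (Fintype.card F) r := by
    have h := Submodule.finrank_sup_add_finrank_inf_eq U U'
    rw [hinf, finrank_bot, hUdim, hU'dim] at h
    omega
  refine ⟨U ⊔ U', sup_le hUW hU'W, inv_sup hUmin.1 hU'min.1, ?_, hfr, ?_⟩
  · -- step 8
    apply nd_of_inf_perp hb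
    rw [eq_bot_iff]
    intro w hw
    obtain ⟨hwD, hwp⟩ := hw
    obtain ⟨u, hu, u', hu', rfl⟩ := Submodule.mem_sup.1 hwD
    have hu'0 : u' = 0 := by
      apply hU'disj u' hu'
      intro y hy
      have h1 := hwp y (Submodule.mem_sup_left hy)
      rw [hb.add_right, hUts hu y hy, zero_add] at h1
      exact h1
    have hu0 : u = 0 := by
      apply hUdisj u hu
      intro y hy
      have h1 := hwp y (Submodule.mem_sup_right hy)
      rw [hu'0, add_zero] at h1
      exact h1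
    rw [hu0, hu'0, add_zero]
    exact Submodule.zero_mem _
  · -- step 9
    exact ⟨U, le_sup_left, hUQ, by rw [hfr, hUdim]⟩

end

/-- [BLKE] -/
theorem pkgBlkE : Cfsg.Agent.Lib.Helper44.OElp.PkgBlkE.{u} := by
  intro F _ _ ι _ _ Q r x hS W hWmov hW hNd hW0
  by_cases h2 : (2 : F) = 0
  · have hNF : NoFix x W :=
      (Cfsg.Agent.Lib.Helper59.OHyp.pkgNoFix F ι r x hS.ne hS.pow).mono hWmov
    rcases Nat.even_or_odd (ordI (Fintype.card F) r) with hev | hodd
    · obtain ⟨D, hDW, hDmin, hDnd, hDdim⟩ := evenCaseE hS W hW hNd hW0 hNF hev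
      refine ⟨D, hDW, hDmin.1, hDnd, ?_, ?_⟩
      · rw [hDdim]
        unfold cc
        rw [if_pos hev]
      · constructor
        · intro hP
          exact absurd hP (minusE hS D hDmin (hNF.mono hDW) hDnd hev hDdim)
        · intro hodd
          exact absurd hev (Nat.not_even_iff_odd.2 hodd)
    · obtain ⟨D, hDW, hDinv, hDnd, hDdim, hDplus⟩ := oddCase2 hS h2 W hW hNd hW0 hNF hodd
      refine ⟨D, hDW, hDinv, hDnd, ?_, ?_⟩
      · rw [hDdim]
        unfold cc
        rw [if_neg (Nat.not_even_iff_odd.2 hodd)]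
      · exact ⟨fun _ => hodd, fun _ => hDplus⟩
  · exact pkgBlk_of_singCnt Cfsg.Agent.Lib.Helper27.OHyp.pkgSingCnt F ι Q r x (hS.toStd h2) W
      hWmov hW hNd hW0

end Cfsg.Agent.Lib.Helper59.OElp
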